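import Cfsg.Agent.H6.Cert
import Cfsg.Agent.H6.Suz.Pres

set_option autoImplicit false
set_option maxRecDepth 100000

namespace Cfsg.H6.Suz.C5

noncomputable def get (y : ℕ) : ℕ := (sel (nat_lit 1) y (nat_lit 0x0) (nat_lit 0x200000900000802000008000009010000070000090100000900000701000006000008010000080000060200000500000702000007000005020000040000060200000600000401000003000005010000050000030100000200000401000004000002020000010000030200000300000102000000000002020000020000000100000000000101000001000000))
noncomputable def gs (y : ℕ) : ℕ := (sel (nat_lit 2) y (sel (nat_lit 1) y (nat_lit 0x0) (nat_lit 0x0)) (sel (nat_lit 3) y (nat_lit 0x0) (sel (nat_lit 4) y (nat_lit 0x0) (nat_lit 0x80000028000002800000280000028000002800000280000028000002800000280000028000002800000280000028000002800000280000028000002800000280000028000002800000280000028000001000020e000020a00002060000202000020100002050000209000020d0000211800000080000008000000800000080000008000000800000080000008000000))))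
noncomputable def gd (_y : ℕ) : ℕ := (nat_lit 0x210000020e000020c000020a000020800002060000204000020200002000000000)
noncomputable def gwh (y : ℕ) : ℕ := (sel (nat_lit 1) y (nat_lit 0x102010201020102010200000a000000) (nat_lit 0x1))
noncomputable def gc (y : ℕ) : ℕ := (sel (nat_lit 1) y (nat_lit 0x211000020f0000210000020e000020900002070000208000020600002010000200) (nat_lit 0x2120000213000020d000020b000020c000020a0000205000020300002040000202))

theorem b0 : allR (blk get gs (gwB gwh 2) gd 131328) 4 1 = true := by decide +kernel

theorem c0 : allR (clo get gc 10 576 1) 0 2 = true := by decide +kernel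

def sg : List (List ℕ) := [[], [1], [2]]

def BL : List ℕ := [0x1020102010201020102, 0x0]

def Sub : List (List ℕ) := []

theorem hA : prepA 506097522914230528 Suz.R sg 131328 BL Sub get gd = true := by decide +kernel

theorem hw : allR (okW BL gwh) 0 2 = true := by decide +kernel

theorem hb : ∀ b, 4 ≤ b → b < 5 → blk get gs (gwB gwh 2) gd 131328 b = true :=
  (allR_range b0 (by norm_num : 4 + 1 = 5))

def X : List (List ℕ) := [[1], [2]]

theorem hC : prepC sg 131328 X 2 10 1 = true := by decide +kernel

theorem hc : ∀ t, 0 ≤ t → t < 2 * 1 → clo get gc 10 576 1 t = true :=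
  (allR_range c0 (by norm_num : 0 + 2 = 2))

theorem cover {G : Type*} [Group G] {ev : ℕ → G} (hev : Good ev 506097522914230528) (hR : Rels ev Suz.R) :
    Cover (gen ev Sub) (gen ev X) 10 :=
  cert_cover hev hR hA hC hw hb (by norm_num) hc


end Cfsg.H6.Suz.C5
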